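import Cfsg.Agent.H347.Rat.Index
import Cfsg.Agent.KFacts.M24Two.Out
import Cfsg.Agent.KFacts.M23.OutOne
import Cfsg.Agent.S0366
/-!
Groups with a normal subgroup `M₂₃` or `M₂₄` have subgroups of index `23` or `24`.
-/

set_option autoImplicit false

namespace Cfsg.Agent.H347.Rat

open MulAction Cfsg Cfsg.Spor

theorem cen_trivial {T : Type*} [Group T] (hs : IsSimpleGroup T) (hna : ¬ ∀ a b : T, a * b = b * a) (t : T)
    (ht : ∀ s : T, t * s = s * t) : t = 1 := by
  rcases hs.eq_bot_or_eq_top_of_normal (Subgroup.center T) inferInstance with h | h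
  · have : t ∈ Subgroup.center T := Subgroup.mem_center_iff.2 fun s => (ht s).symm
    rwa [h, Subgroup.mem_bot] at this
  · exact absurd (fun a b => ((Subgroup.mem_center_iff.1 (h ▸ Subgroup.mem_top a)) b).symm) hna

theorem index_m24 {G : Type*} [Group G] (T : Subgroup G) [T.Normal] (hcen : ∀ t : T, (∀ s : T, t * s = s * t) → t = 1)
    (h : IsoM24 T) : ∃ H : Subgroup G, H.index = 24 := by
  obtain ⟨e⟩ := h
  obtain ⟨π, hπ, -⟩ := exists_proj T hcen fun α => by
    obtain ⟨k, hk⟩ := Cfsg.Agent.KFacts.M24Two.Out.exists_conj ((MulAut.congr e) α)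
    refine ⟨e.symm k, fun x => ?_⟩
    have h1 := congrArg (fun f : MulAut M24 => f (e x)) hk
    change e (α (e.symm (e x))) = k * e x * k⁻¹ at h1
    rw [e.symm_apply_apply] at h1
    apply e.injective
    rw [h1, map_mul, map_mul, map_inv, e.apply_symm_apply]
  have h5 : IsMultiplyPretransitive M24 GolayPt 5 := Cfsg.Agent.S0366.result
  have h2 : IsMultiplyPretransitive M24 GolayPt 1 :=
    isMultiplyPretransitive_of_le (n := 5) (by norm_num) (by simp)
  have h3 := is_one_pretransitive_iff.1 h2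
  obtain ⟨H, hH⟩ := index_of_hom ((M24.subtype.comp e.toMonoidHom).comp π) (none : GolayPt) fun y => by
    obtain ⟨g, hg⟩ := h3.exists_smul_eq none y
    refine ⟨e.symm g, ?_⟩
    change ((e (π (e.symm g)) : M24) : Equiv.Perm GolayPt) none = y
    rw [hπ, e.apply_symm_apply]
    exact hg
  exact ⟨H, by rw [hH]; simp⟩

theorem index_m23 {G : Type*} [Group G] (T : Subgroup G) [T.Normal] (hcen : ∀ t : T, (∀ s : T, t * s = s * t) → t = 1)
    (h : IsoM23 T) : ∃ H : Subgroup G, H.index = 23 := by
  obtain ⟨π, hπ, -⟩ := exists_proj T hcen fun α => Cfsg.Agent.KFacts.M23.OutOne.exists_conj' h α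
  obtain ⟨e⟩ := h
  have h5 : IsMultiplyPretransitive M24 GolayPt 5 := Cfsg.Agent.S0366.result
  have h2 : IsMultiplyPretransitive M24 GolayPt 2 :=
    isMultiplyPretransitive_of_le (n := 5) (by norm_num) (by simp)
  -- the points different from `none`
  have hfix : ∀ m : M23, (m : Equiv.Perm GolayPt) none = none := fun m => m.2.2
  let ψ : M23 →* Equiv.Perm {p : GolayPt // p ≠ none} :=
    { toFun := fun m => (m : Equiv.Perm GolayPt).subtypePerm fun x => by
        rw [not_iff_not]
        constructor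
        · intro h; exact (m : Equiv.Perm GolayPt).injective (h.trans (hfix m).symm)
        · intro h; rw [h]; exact hfix m
      map_one' := by ext x; rfl
      map_mul' := fun a b => by ext x; rfl }
  have h0 : (some 0 : GolayPt) ≠ none := by simp
  obtain ⟨H, hH⟩ := index_of_hom ((ψ.comp e.toMonoidHom).comp π) (⟨some 0, h0⟩ : {p : GolayPt // p ≠ none})
    fun y => by
    obtain ⟨g, hg1, hg2⟩ := is_two_pretransitive_iff.1 h2 (Ne.symm h0) (Ne.symm y.2)
    let m : M23 := ⟨g.1, g.2, hg1⟩
    refine ⟨e.symm m, ?_⟩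
    apply Subtype.ext
    change ((e (π (e.symm m)) : M23) : Equiv.Perm GolayPt) (some 0) = y
    rw [hπ, e.apply_symm_apply]
    exact hg2
  refine ⟨H, ?_⟩
  rw [hH, Nat.card_eq_fintype_card]
  decide +kernel

end Cfsg.Agent.H347.Rat
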